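import Cfsg.Agent.H597.HT.NVRuON
import Cfsg.Agent.Schreier.Suz
import Cfsg.Agent.Lib.PermNetPt

/-!
# S4933: the row of `Suz` at the prime 2 (helper597)

The Sylow 2-subgroups are not metabelian.
-/

set_option autoImplicit false
set_option maxRecDepth 100000

namespace Cfsg.Agent.H597.HT

open Cfsg Subgroup
open Cfsg.Agent.H483.HT Cfsg.Agent.H316.HT
open scoped commutatorElement

section

open Cfsg.Agent.Schreier.SuzT Cfsg.Agent.Schreier.SuzNetT Cfsg.Agent.Schreier.Suz Cfsg.Agent.Lib.PermNet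
  Cfsg.Agent.Lib.PermNetPt

theorem ne_suz : ¬ ∀ p ∈ List.range 64, winv [x4N, x5N] p = winv [x5N, x4N] p := by decide +kernel

theorem nv_Suz : NV 2 Cfsg.Spor.Suz := by
  refine ⟨T, twoT, s1, s1_mem, s2, s2_mem, s2, s2_mem, s3, s3_mem, ?_⟩
  have h1 : ⁅s1, s2⁆ = x4 := rfl
  have h2 : ⁅s2, s3⁆ = x5 := rfl
  rw [h1, h2]
  intro h
  have h3 := commutatorElement_eq_one_iff_mul_comm.1 h
  have h4 : wperm [x4N, x5N] = wperm [x5N, x4N] := by
    rw [← rep_prod (.cons r_x4 (.cons r_x5 .nil)), ← rep_prod (.cons r_x5 (.cons r_x4 .nil))]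
    simp only [List.prod_cons, List.prod_nil, mul_one, h3]
  apply ne_suz
  intro p _
  rw [winv_eq (rep_wok (.cons r_x4 (.cons r_x5 .nil))), winv_eq (rep_wok (.cons r_x5 (.cons r_x4 .nil))), h4]

end

/-- **the row of `Suz`** -/
theorem suz_2 (K : Type) [Group K] [Finite K] [IsSimpleGroup K] (_ : ¬ IsMulCommutative K) (h : Spor.IsoSuz K) :
    Row 2 K := by
  obtain ⟨e⟩ := h
  exact row_of_nv (nv_Suz.congr e.symm)

end Cfsg.Agent.H597.HT
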